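import Cfsg.Agent.H617.Pb.Defs
import Cfsg.Agent.H633.Principal
import Cfsg.Agent.H649.Transport
import Cfsg.Agent.H106.TwoRed

/-!
# S4822, B6b: reduction of the lower bound for `k₀` to simple groups (helper81)
-/

set_option autoImplicit false
open Cfsg

namespace Cfsg.Agent.H81.PbRed

open Cfsg.Agent.H617.Pb Cfsg.Agent.H106.TwoRed Cfsg.Agent.Lib

universe u v

theorem k0_congr {G : Type u} {H : Type v} [Group G] [Group H] (e : G ≃* H) (M : Ideal AlgInt) : k0 M G = k0 M H := by
  unfold k0
  rw [← Cfsg.Agent.H649.blkMap_principalBlock e]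
  exact (Nat.card_image_of_injective (Cfsg.Agent.H649.irrMap_injective e) _).symm

theorem k0_quot_le {G : Type u} [Group G] [Finite G] {M : Ideal AlgInt} [M.IsPrime] (K : Subgroup G) [K.Normal] :
    k0 M (G ⧸ K) ≤ k0 M G := by
  have hfin : Finite (IrrCharacter G) := Cfsg.Agent.Characters.Core.finite_irr
  refine Nat.card_le_card_of_injective
    (fun χ : principalBlock M (G ⧸ K) => (⟨Cfsg.Agent.H633.Principal.infl K χ.1,
      Cfsg.Agent.H633.Principal.inflate_mem K χ.2⟩ : principalBlock M G)) ?_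
  intro χ ψ h
  apply Subtype.ext
  apply Subtype.ext
  funext x
  induction x using QuotientGroup.induction_on with
  | H g =>
    have h1 := congrArg (fun ζ : principalBlock M G => ((ζ : IrrCharacter G) : G → ℂ) g) h
    exact h1

section grp

variable {G : Type u} [Group G] [Finite G] {p : ℕ} [hp : Fact p.Prime]

/-- normal `p'`-subgroups of normal subgroups -/
theorem eq_bot_of_core (hO : pPrimeCore p G = ⊥) {C : Subgroup G} (hC : C.Normal) {K : Subgroup C} (hK : K.Normal)
    (hKp : ¬ p ∣ Nat.card K) : K = ⊥ := by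
  have h1 : K ≤ pPrimeCore p C := Cores.le_pPrimeCore hK ((hp.out.coprime_iff_not_dvd).2 hKp).symm
  have h2 := Cores.map_subtype_pPrimeCore p hC
  have h3 : (pPrimeCore p C).map C.subtype = ⊥ := by
    rw [h2, hO]; simp
  have h4 : pPrimeCore p C = ⊥ := (Subgroup.map_eq_bot_iff_of_injective _ C.subtype_injective).1 h3
  rw [h4] at h1
  exact le_bot_iff.1 h1

/-- a central `p`-subgroup of `p'`-index in a normal subgroup -/
theorem eq_of_central (hO : pPrimeCore p G = ⊥) {C N : Subgroup G} (hC : C.Normal) (hNC : N ≤ C)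
    (hcen : ∀ x ∈ N, ∀ y ∈ C, x * y = y * x) (hNp : IsPGroup p N) (hi : ¬ p ∣ N.index) : C = N := by
  have hcen' : ∀ x : C, x ∈ N.subgroupOf C → ∀ y : C, x * y = y * x := fun x hx y =>
    Subtype.ext (hcen x hx y y.2)
  have hnorm : (N.subgroupOf C).Normal := ⟨fun x hx g => by
    rw [← hcen' x hx g, mul_assoc, mul_inv_cancel, mul_one]; exact hx⟩
  have hcard : Nat.card (N.subgroupOf C) = Nat.card N :=
    Nat.card_congr (Subgroup.subgroupOfEquivOfLe hNC).toEquiv
  have hcop : Nat.Coprime (Nat.card (N.subgroupOf C)) (N.subgroupOf C).index := by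
    rw [hcard]
    obtain ⟨k, hk⟩ := IsPGroup.iff_card.1 hNp
    rw [hk]
    refine Nat.Coprime.pow_left k ((hp.out.coprime_iff_not_dvd).2 fun h => hi ?_)
    exact h.trans (Dvd.intro _ (Subgroup.relIndex_mul_index hNC))
  obtain ⟨H, hH⟩ := Subgroup.exists_right_complement'_of_coprime hcop
  have hHn : H.Normal := by
    refine ⟨fun x hx g => ?_⟩
    obtain ⟨⟨n, h⟩, hg⟩ := hH.2 g
    have hg' : (n : C) * (h : C) = g := hg
    rw [← hg']
    have h1 : (n : C) * (h : C) * x * ((n : C) * (h : C))⁻¹ = (h : C) * x * (h : C)⁻¹ := by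
      have h2 := hcen' n n.2 ((h : C) * x * (h : C)⁻¹)
      calc (n : C) * (h : C) * x * ((n : C) * (h : C))⁻¹ = (n : C) * ((h : C) * x * (h : C)⁻¹) * (n : C)⁻¹ := by group
        _ = _ := by rw [h2, mul_inv_cancel_right]
    rw [h1]
    exact H.mul_mem (H.mul_mem h.2 hx) (H.inv_mem h.2)
  have hcm : Nat.card (N.subgroupOf C) * Nat.card H = Nat.card (N.subgroupOf C) * (N.subgroupOf C).index := by
    rw [hH.card_mul_card, Subgroup.card_mul_index]
  have hHi : Nat.card H = (N.subgroupOf C).index := Nat.eq_of_mul_eq_mul_left Nat.card_pos hcm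
  have hHp : ¬ p ∣ Nat.card H := by
    rw [hHi]
    exact fun h => hi (h.trans (Dvd.intro _ (Subgroup.relIndex_mul_index hNC)))
  have hHb := eq_bot_of_core hO hC hHn hHp
  rw [hHb, Subgroup.card_bot] at hHi
  have h1 : N.subgroupOf C = ⊤ := Subgroup.index_eq_one.1 hHi.symm
  exact le_antisymm (Subgroup.subgroupOf_eq_top.1 h1) hNC

end grp

/-- **B6b: the reduction.** -/
theorem reduction {G : Type u} [Group G] [Finite G] {p : ℕ} [Fact p.Prime] (hp11 : 11 ≤ p) (hpG : p ∣ Nat.card G)
    {M : Ideal AlgInt} (hM : IsPModular p M)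
    (haff : ∀ (G : Type u) [Group G] [Finite G] (N : Subgroup G), N.Normal →
      (∀ K : Subgroup G, K.Normal → K ≤ N → K = ⊥ ∨ K = N) → N ≠ ⊥ → (∀ x ∈ N, ∀ y ∈ N, x * y = y * x) →
      IsPGroup p ↥N → Subgroup.centralizer (N : Set G) = N → ¬ p ∣ N.index → 4 * (p - 1) ≤ k0 M G ^ 2)
    (hsev : ∀ (G : Type u) [Group G] [Finite G] (N : Subgroup G), N.Normal →
      (∀ K : Subgroup G, K.Normal → K ≤ N → K = ⊥ ∨ K = N) → Subgroup.centralizer (N : Set G) = ⊥ → ¬ p ∣ N.index →
      ∀ S : Subgroup G, S ≤ N → IsSimpleGroup ↥S → (∀ n ∈ N, ∀ x ∈ S, n * x * n⁻¹ ∈ S) → S ≠ N → Row p ↥S →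
      4 * (p - 1) ≤ k0 M G ^ 2)
    (hrow : ∀ (S : Type u) [Group S] [Finite S] [IsSimpleGroup S], ¬ IsMulCommutative S → p ∣ Nat.card S → Row p S) :
    4 * (p - 1) ≤ k0 M G ^ 2 := by
  have hp : p.Prime := Fact.out
  have hMp : M.IsPrime := hM.2.1.isPrime
  suffices key : ∀ n : ℕ, ∀ (G : Type u) [Group G] [Finite G], Nat.card G = n → p ∣ Nat.card G →
      4 * (p - 1) ≤ k0 M G ^ 2 from key _ G rfl hpG
  clear hpG
  intro n
  induction n using Nat.strong_induction_on with
  | _ n ih =>
  intro G instG instF hn hpG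
  by_cases hex : ∃ K : Subgroup G, K.Normal ∧ K ≠ ⊥ ∧ p ∣ K.index
  · obtain ⟨K, hK, hKb, hKi⟩ := hex
    have h1 : 1 < Nat.card K := by
      rw [Finite.one_lt_card_iff_nontrivial, Subgroup.nontrivial_iff_ne_bot]
      exact hKb
    have h2 := Subgroup.card_mul_index K
    have h3 : 0 < K.index := Nat.pos_of_ne_zero Subgroup.index_ne_zero_of_finite
    have h4 : K.index < n := by
      rw [← hn, ← h2]
      nlinarith
    exact (ih _ h4 (G ⧸ K) rfl hKi).trans (Nat.pow_le_pow_left (k0_quot_le K) 2)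
  push Not at hex
  have hnt : Nontrivial G := by
    rw [← Finite.one_lt_card_iff_nontrivial]
    exact lt_of_lt_of_le hp.one_lt (Nat.le_of_dvd Nat.card_pos hpG)
  obtain ⟨N, hN⟩ := exists_minNormal (G := G)
  have hNn := hN.normal
  have hNi : ¬ p ∣ N.index := hex N hNn hN.ne_bot
  have hdvd : ∀ K : Subgroup G, ¬ p ∣ K.index → p ∣ Nat.card K := by
    intro K hK
    have h1 := hpG
    rw [← Subgroup.card_mul_index K] at h1
    exact (hp.dvd_mul.1 h1).resolve_right hK
  have hpN := hdvd N hNi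
  have hmin : ∀ K : Subgroup G, K.Normal → K ≤ N → K = ⊥ ∨ K = N := by
    intro K hK hKN
    by_cases hKb : K = ⊥
    · exact Or.inl hKb
    · exact Or.inr (hN.min K hK hKN hKb)
  have hO : pPrimeCore p G = ⊥ := by
    by_contra hb
    have h1 := hdvd _ (hex _ (Cores.pPrimeCore_normal p) hb)
    have h2 := Cores.pPrimeCore_coprime (G := G) p
    exact (hp.coprime_iff_not_dvd.1 h2.symm) h1
  have hCn : (Subgroup.centralizer (N : Set G)).Normal := inferInstance
  by_cases hab : ∀ x ∈ N, ∀ y ∈ N, x * y = y * x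
  · -- the affine case
    have hNp : IsPGroup p N := by
      let K : Subgroup G :=
        { carrier := {x | x ∈ N ∧ ∃ k : ℕ, x ^ p ^ k = 1}
          one_mem' := ⟨N.one_mem, 0, one_pow _⟩
          mul_mem' := by
            rintro x y ⟨hx, k, hk⟩ ⟨hy, l, hl⟩
            refine ⟨N.mul_mem hx hy, k + l, ?_⟩
            have hc : Commute x y := hab x hx y hy
            rw [hc.mul_pow, pow_add, pow_mul, hk, one_pow, one_mul, mul_comm, pow_mul, hl, one_pow]
          inv_mem' := by
            rintro x ⟨hx, k, hk⟩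
            exact ⟨N.inv_mem hx, k, by rw [inv_pow, hk, inv_one]⟩ }
      have hK : K.Normal := ⟨fun x ⟨hx, k, hk⟩ g =>
        ⟨hNn.conj_mem x hx g, k, by rw [conj_pow, hk, mul_one, mul_inv_cancel]⟩⟩
      have hKN : K = N := by
        refine hN.min K hK (fun x hx => hx.1) ?_
        intro hb
        obtain ⟨x, hx⟩ := exists_prime_orderOf_dvd_card' p hpN
        have h1 : (x : G) ∈ K := ⟨x.2, 1, by
          rw [pow_one, ← Subgroup.coe_pow, ← hx, pow_orderOf_eq_one]; rfl⟩
        rw [hb, Subgroup.mem_bot] at h1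
        have h2 : x = 1 := Subtype.ext h1
        rw [h2, orderOf_one] at hx
        exact hp.one_lt.ne hx
      intro x
      have h1 : (x : G) ∈ K := by rw [hKN]; exact x.2
      obtain ⟨-, k, hk⟩ := h1
      exact ⟨k, Subtype.ext hk⟩
    have hNC : N ≤ Subgroup.centralizer (N : Set G) := fun x hx =>
      Subgroup.mem_centralizer_iff.2 fun y hy => (hab x hx y hy).symm
    have hC : Subgroup.centralizer (N : Set G) = N :=
      eq_of_central hO hCn hNC (fun x hx y hy => Subgroup.mem_centralizer_iff.1 hy x hx) hNp hNi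
    exact haff G N hNn hmin hN.ne_bot hab hNp hC hNi
  -- the nonabelian case
  have hNC : N ⊓ Subgroup.centralizer (N : Set G) = ⊥ := by
    by_contra hb
    have h1 := hN.min _ (Subgroup.normal_inf_normal _ _) inf_le_left hb
    apply hab
    intro x hx y hy
    rw [← h1] at hx
    exact (Subgroup.mem_centralizer_iff.1 hx.2 y hy).symm
  have hC : Subgroup.centralizer (N : Set G) = ⊥ := by
    by_contra hb
    apply hex _ hCn hb
    let f : N →* G ⧸ Subgroup.centralizer (N : Set G) := (QuotientGroup.mk' _).comp N.subtype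
    have hf : Function.Injective f := by
      rw [injective_iff_map_eq_one]
      intro x hx
      have h1 : (x : G) ∈ Subgroup.centralizer (N : Set G) := (QuotientGroup.eq_one_iff _).1 hx
      have h2 : (x : G) ∈ N ⊓ Subgroup.centralizer (N : Set G) := ⟨x.2, h1⟩
      rw [hNC, Subgroup.mem_bot] at h2
      exact Subtype.ext h2
    exact hpN.trans (Subgroup.card_dvd_of_injective f hf)
  obtain ⟨L, hL⟩ := exists_minIn hN.ne_bot
  have hLs : IsSimpleGroup L := simple_of_minIn hN hL
  have hLc : ¬ IsMulCommutative L := by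
    intro hc
    apply hL.ne_bot
    rw [eq_bot_iff, ← hNC]
    intro l hl
    refine ⟨hL.le hl, Subgroup.mem_centralizer_iff.2 fun n hn => ?_⟩
    obtain ⟨a, ha, k, hk, rfl⟩ := le_prodSub hN hL n hn
    have h1 : a * l = l * a := congrArg Subtype.val (hc.is_comm.comm (⟨a, ha⟩ : L) ⟨l, hl⟩)
    have h2 : l * k = k * l := (mem_cen.1 hk).2 l hl
    rw [mul_assoc, ← h2, ← mul_assoc, h1, mul_assoc]
  have hLp : p ∣ Nat.card L := by
    by_contra hcon
    have h1 : (L.subgroupOf N).Normal := ⟨fun x hx g => hL.conj g g.2 x hx⟩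
    have h2 := eq_bot_of_core hO hNn h1 (by
      rwa [Nat.card_congr (Subgroup.subgroupOfEquivOfLe hL.le).toEquiv])
    apply hL.ne_bot
    rw [Subgroup.subgroupOf_eq_bot] at h2
    have := h2.eq_bot
    rwa [inf_eq_left.2 hL.le] at this
  by_cases hLN : L = N
  · subst hLN
    have hrowL := hrow L hLc hLp
    let φ : G →* MulAut L := MulAut.conjNormal
    have hφ : Function.Injective φ := by
      rw [injective_iff_map_eq_one]
      intro g hg
      have h1 : g ∈ Subgroup.centralizer (L : Set G) := by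
        rw [Subgroup.mem_centralizer_iff]
        intro l hl
        have h2 := congrArg (fun a : MulAut L => ((a ⟨l, hl⟩ : L) : G)) hg
        have h3 : g * l * g⁻¹ = l := h2
        rw [mul_inv_eq_iff_eq_mul] at h3
        exact h3.symm
      rwa [hC, Subgroup.mem_bot] at h1
    have hInn : H617.Pb.Inn L = L.map φ := by
      ext a
      constructor
      · rintro ⟨l, rfl⟩
        refine ⟨l, l.2, ?_⟩
        apply MulEquiv.ext
        intro x
        apply Subtype.ext
        rfl
      · rintro ⟨l, hl, rfl⟩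
        refine ⟨⟨l, hl⟩, ?_⟩
        apply MulEquiv.ext
        intro x
        apply Subtype.ext
        rfl
    have hadm : Adm p L φ.range := by
      refine ⟨?_, ?_⟩
      · rw [hInn]
        rintro _ ⟨l, -, rfl⟩
        exact ⟨l, rfl⟩
      · rw [hInn, MonoidHom.range_eq_map, Subgroup.relIndex_map_map_of_injective _ _ hφ, Subgroup.relIndex_top_right]
        exact hNi
    have h1 := (hrowL M hM φ.range hadm).1
    rwa [← k0_congr (MonoidHom.ofInjective hφ) M] at h1
  · exact hsev G N hNn hmin hC hNi L hL.le hLs hL.conj hLN (hrow L hLc hLp)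

end Cfsg.Agent.H81.PbRed
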